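import Mathlib
import Cfsg.Agent.H25.UGDefs

/-! An iterated commutator which is a transvection. -/

set_option autoImplicit false

namespace Cfsg.Agent.H64.UgTv2b

open Cfsg Module Cfsg.Agent.H31 Cfsg.Agent.H25.UG
open Cfsg.Agent.H53.Uw (St)

universe u

section Ring
variable {R G : Type*} [Ring R] [Group G] (D : ℕ → AddSubgroup R) (φ : G →* R)

/-- `N` is the leading term of `g`. -/
def Ld (a : ℕ) (g : G) (N : R) : Prop := N ∈ D a ∧ φ g - 1 - N ∈ D (a + 1)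

variable {D φ}

theorem Ld.comm (mul : ∀ a b, ∀ x ∈ D a, ∀ y ∈ D b, x * y ∈ D (a + b))
    (anti : ∀ a, D (a + 1) ≤ D a) {a b : ℕ} {g h : G} {N M : R} (hg : Ld D φ a g N)
    (hh : Ld D φ b h M) (hk : φ (g⁻¹ * h⁻¹) - 1 ∈ D 1) :
    Ld D φ (a + b) (g * h * (g⁻¹ * h⁻¹)) (N * M - M * N) := by
  have c : ∀ {x : R} {i j : ℕ}, x ∈ D i → i = j → x ∈ D j := fun h e => e ▸ h
  refine ⟨sub_mem (mul _ _ _ hg.1 _ hh.1) (c (mul _ _ _ hh.1 _ hg.1) (add_comm _ _)), ?_⟩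
  have hn : φ g - 1 ∈ D a := by simpa using add_mem (anti a hg.2) hg.1
  have hm : φ h - 1 ∈ D b := by simpa using add_mem (anti b hh.2) hh.1
  have e1 : φ h * φ g * φ (g⁻¹ * h⁻¹) = 1 := by
    rw [← map_mul, ← map_mul, show h * g * (g⁻¹ * h⁻¹) = 1 by group, map_one]
  have e : φ (g * h * (g⁻¹ * h⁻¹)) - 1 - (N * M - M * N) =
      ((φ g - 1) * (φ h - 1) - (φ h - 1) * (φ g - 1)) * (φ (g⁻¹ * h⁻¹) - 1) +
      ((φ g - 1 - N) * (φ h - 1) + N * (φ h - 1 - M) -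
        ((φ h - 1 - M) * (φ g - 1) + M * (φ g - 1 - N))) := by
    rw [map_mul, map_mul]
    generalize φ (g⁻¹ * h⁻¹) = k at e1 ⊢
    conv_lhs => rw [← e1]
    noncomm_ring
  rw [e]
  exact add_mem (mul _ _ _ (sub_mem (mul _ _ _ hn _ hm) (c (mul _ _ _ hm _ hn) (add_comm _ _))) _ hk)
    (sub_mem (add_mem (c (mul _ _ _ hg.2 _ hm) (by omega)) (c (mul _ _ _ hg.1 _ hh.2) (by omega)))
      (add_mem (c (mul _ _ _ hh.2 _ hn) (by omega)) (c (mul _ _ _ hh.1 _ hg.2) (by omega))))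

/-- The elements acting unipotently. -/
def Un (mul : ∀ a b, ∀ x ∈ D a, ∀ y ∈ D b, x * y ∈ D (a + b)) (anti : ∀ a, D (a + 1) ≤ D a)
    (φ : G →* R) : Submonoid G where
  carrier := {g | φ g - 1 ∈ D 1}
  one_mem' := by simp [(D 1).zero_mem]
  mul_mem' {g h} hg hh := by
    have e : φ (g * h) - 1 = (φ g - 1) * (φ h - 1) + (φ g - 1) + (φ h - 1) := by
      rw [map_mul]; noncomm_ring
    show φ (g * h) - 1 ∈ D 1
    rw [e]
    exact add_mem (add_mem (anti 1 (mul _ _ _ hg _ hh)) hg) hh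

theorem inv_mem_of_finite [Finite G] {U : Submonoid G} {g : G} (h : g ∈ U) : g⁻¹ ∈ U := by
  obtain ⟨n, e⟩ := mem_powers_iff_mem_zpowers.2 (inv_mem (Subgroup.mem_zpowers g))
  exact e ▸ pow_mem h n

/-- The leading term of an iterated commutator. -/
theorem ld4 [Finite G] (mul : ∀ a b, ∀ x ∈ D a, ∀ y ∈ D b, x * y ∈ D (a + b))
    (anti : ∀ a, D (a + 1) ≤ D a) {a b c d : G} (ha : φ a - 1 ∈ D 1) (hb : φ b - 1 ∈ D 1)
    (hc : φ c - 1 ∈ D 1) (hd : φ d - 1 ∈ D 1) : ∃ g : G, ∃ K L : R,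
      K = (φ c - 1) * (φ d - 1) - (φ d - 1) * (φ c - 1) ∧ L = (φ b - 1) * K - K * (φ b - 1) ∧
      φ g - 1 - ((φ a - 1) * L - L * (φ a - 1)) ∈ D 5 := by
  have l1 : ∀ {g : G}, φ g - 1 ∈ D 1 → Ld D φ 1 g (φ g - 1) := fun h =>
    ⟨h, by rw [sub_self]; exact zero_mem _⟩
  have k : ∀ {g h : G}, g ∈ Un mul anti φ → h ∈ Un mul anti φ → g⁻¹ * h⁻¹ ∈ Un mul anti φ :=
    fun hg hh => mul_mem (inv_mem_of_finite hg) (inv_mem_of_finite hh)
  have m : ∀ {g h : G}, g ∈ Un mul anti φ → h ∈ Un mul anti φ →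
      g * h * (g⁻¹ * h⁻¹) ∈ Un mul anti φ := fun hg hh => mul_mem (mul_mem hg hh) (k hg hh)
  have h1 := (l1 hc).comm mul anti (l1 hd) (k hc hd)
  have h2 := (l1 hb).comm mul anti h1 (k hb (m hc hd))
  have h3 := (l1 ha).comm mul anti h2 (k ha (m hb (m hc hd)))
  exact ⟨_, _, _, rfl, rfl, h3.2⟩

end Ring

section Geo
variable {E V : Type u} [Field E] [AddCommGroup V] [Module E V] {σ : E →+* E}

/-- The maps raising a filtration by `a`. -/
def Dg (Fl : ℕ → Submodule E V) (a : ℕ) : AddSubgroup (Module.End E V) where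
  carrier := {n | ∀ i, ∀ u ∈ Fl i, n u ∈ Fl (i + a)}
  zero_mem' i u _ := zero_mem _
  add_mem' hn hm i u hu := add_mem (hn i u hu) (hm i u hu)
  neg_mem' hn i u hu := neg_mem (hn i u hu)

theorem Dg_mul (Fl : ℕ → Submodule E V) (a b : ℕ) :
    ∀ x ∈ Dg Fl a, ∀ y ∈ Dg Fl b, x * y ∈ Dg Fl (a + b) := fun x hx y hy i u hu => by
  have := hx _ _ (hy i u hu)
  rwa [add_assoc, add_comm b] at this

theorem Dg_anti {Fl : ℕ → Submodule E V} (h : ∀ i, Fl (i + 1) ≤ Fl i) (a : ℕ) :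
    Dg Fl (a + 1) ≤ Dg Fl a := fun _ hx i u hu => h _ (hx i u hu)

/-- The filtration. -/
def Fl (B : V →ₛₗ[σ] V →ₗ[E] E) (e₁ e₂ e₃ : V) : ℕ → Submodule E V
  | 0 => ⊤
  | 1 => perp B (E ∙ e₁)
  | 2 => perp B (Submodule.span E {e₁, e₂, e₃})
  | 3 => Submodule.span E {e₁, e₂, e₃}
  | 4 => E ∙ e₁
  | _ + 5 => ⊥

/-- The elements of a group of linear automorphisms as endomorphisms. -/
def φ (S : Subgroup (V ≃ₗ[E] V)) : S →* Module.End E V where
  toFun g := g.1.toLinearMap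
  map_one' := rfl
  map_mul' _ _ := rfl

theorem n_apply {S : Subgroup (V ≃ₗ[E] V)} (g : S) (u : V) : (φ S g - 1) u = g.1 u - u := rfl

theorem expand (a b c d : Module.End E V) (u : V) :
    (a * (b * (c * d - d * c) - (c * d - d * c) * b) -
      (b * (c * d - d * c) - (c * d - d * c) * b) * a) u =
    a (b (c (d u))) - a (b (d (c u))) - (a (c (d (b u))) - a (d (c (b u)))) -
      (b (c (d (a u))) - b (d (c (a u))) - (c (d (b (a u))) - d (c (b (a u))))) := by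
  simp only [LinearMap.sub_apply, Module.End.mul_apply, map_sub]

variable {B : V →ₛₗ[σ] V →ₗ[E] E} {S : Subgroup (V ≃ₗ[E] V)} {e₁ e₂ e₃ v : V}
  {x y z a₁ a₂ a₃ : S → E} (M : Md B S e₁ e₂ e₃ v x y z a₁ a₂ a₃)
include M

omit M in
theorem span_le : E ∙ e₁ ≤ Submodule.span E {e₁, e₂, e₃} := Submodule.span_mono (by simp)

theorem Fl_anti (i : ℕ) : Fl B e₁ e₂ e₃ (i + 1) ≤ Fl B e₁ e₂ e₃ i := by
  rcases i with _ | _ | _ | _ | _ | i
  · exact le_top
  · exact perp_anti span_le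
  · exact totIso_iff_le_perp.1 M.ti
  · exact span_le
  · exact bot_le
  · exact bot_le

theorem B1 (g : S) (u : V) : B e₁ ((φ S g - 1) u) = 0 := by
  have := M.le g.2 e₁ u
  rw [M.g₁] at this
  rw [n_apply, map_sub, this, sub_self]

theorem B1' (g : S) (u : V) : B e₁ (g.1 u) = B e₁ u := by
  have := M.le g.2 e₁ u
  rwa [M.g₁] at this

theorem B2 (g : S) (u : V) : B e₂ ((φ S g - 1) u) = -(σ (x g) * B e₁ u) := by
  have := M.le g.2 e₂ u
  rw [M.g₂, add_left, smul_left, B1' M] at this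
  rw [n_apply, map_sub]
  linear_combination this

theorem B3 {g : S} (hg : y g = 0) (u : V) : B e₃ ((φ S g - 1) u) = -(σ (z g) * B e₁ u) := by
  have := M.le g.2 e₃ u
  rw [M.g₃, hg, zero_smul, add_zero, add_left, smul_left, B1' M] at this
  rw [n_apply, map_sub]
  linear_combination this

theorem Bv {g : S} (hg : y g = 0) {u : V} (hu : B e₁ u = 0) :
    B v ((φ S g - 1) u) = -(σ (a₂ g) * B e₂ u + σ (a₃ g) * B e₃ u) := by
  have := M.le g.2 v u
  have h2 := B2 M g u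
  have h3 := B3 M hg u
  rw [M.gv, add_left, add_left, add_left, smul_left, smul_left, smul_left, B1' M, hu] at this
  rw [n_apply, map_sub, hu] at h2 h3
  rw [n_apply, map_sub]
  linear_combination this - σ (a₂ g) * h2 - σ (a₃ g) * h3

theorem n1 (g : S) : (φ S g - 1) e₁ = 0 := by rw [n_apply, M.g₁, sub_self]

theorem n2 (g : S) : (φ S g - 1) e₂ = x g • e₁ := by rw [n_apply, M.g₂, add_sub_cancel_left]

theorem n3 {g : S} (hg : y g = 0) : (φ S g - 1) e₃ = z g • e₁ := by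
  rw [n_apply, M.g₃, hg, zero_smul, add_zero, add_sub_cancel_left]

theorem nv (g : S) : (φ S g - 1) v = a₁ g • e₁ + a₂ g • e₂ + a₃ g • e₃ := by
  rw [n_apply, M.gv]; abel

theorem nW {g : S} (hg : y g = 0) {w : V} (hw : w ∈ Submodule.span E {e₁, e₂, e₃}) :
    (φ S g - 1) w ∈ E ∙ e₁ := by
  refine (Submodule.span_le (p := (E ∙ e₁).comap (φ S g - 1))).2 ?_ hw
  rintro _ (rfl | rfl | rfl)
  · show _ ∈ E ∙ _
    rw [n1 M]; exact zero_mem _
  · show _ ∈ E ∙ _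
    rw [n2 M]; exact Submodule.smul_mem _ _ (Submodule.mem_span_singleton_self _)
  · show _ ∈ E ∙ _
    rw [n3 M hg]; exact Submodule.smul_mem _ _ (Submodule.mem_span_singleton_self _)

theorem nL (g : S) {w : V} (hw : w ∈ E ∙ e₁) : (φ S g - 1) w = 0 := by
  obtain ⟨c, rfl⟩ := Submodule.mem_span_singleton.1 hw
  rw [map_smul, n1 M, smul_zero]

theorem perp_dec (h : IsHerm B) (h7 : finrank E V = 7) {u : V}
    (hu : u ∈ perp B (Submodule.span E {e₁, e₂, e₃})) :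
    ∃ w ∈ Submodule.span E {e₁, e₂, e₃}, u = w + B v u • v := by
  haveI : FiniteDimensional E V := Module.finite_of_finrank_pos (by omega)
  have r3 : finrank E (Submodule.span E ({e₁, e₂, e₃} : Set V)) = 3 := by
    have := finrank_span_eq_card M.li
    rwa [show Set.range ![e₁, e₂, e₃] = {e₁, e₂, e₃} by ext; simp; tauto] at this
  have hv : v ∈ perp B (Submodule.span E {e₁, e₂, e₃}) := mem_perp_span.2 (by
    rintro _ (rfl | rfl | rfl)
    exacts [M.o₁, M.o₂, M.o₃])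
  have hv' : v ∉ Submodule.span E ({e₁, e₂, e₃} : Set V) := fun hh =>
    one_ne_zero (M.vv.symm.trans (M.ti v hh v hh))
  have e : Submodule.span E ({e₁, e₂, e₃} : Set V) ⊔ E ∙ v =
      perp B (Submodule.span E {e₁, e₂, e₃}) :=
    Submodule.eq_of_le_of_finrank_eq (sup_le (totIso_iff_le_perp.1 M.ti)
      ((Submodule.span_singleton_le_iff_mem _ _).2 hv))
      (by rw [Submodule.finrank_sup_span_singleton hv', h.finrank_perp, r3, h7])
  rw [← e] at hu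
  obtain ⟨w, hw, _, hc, rfl⟩ := Submodule.mem_sup.1 hu
  obtain ⟨c, rfl⟩ := Submodule.mem_span_singleton.1 hc
  refine ⟨w, hw, ?_⟩
  rw [map_add, h.flip_zero (hv w hw), smul_right, M.vv, zero_add, mul_one]

theorem deg_one (h : IsHerm B) (h7 : finrank E V = 7) {g : S} (hg : y g = 0) :
    φ S g - 1 ∈ Dg (Fl B e₁ e₂ e₃) 1 := by
  intro i u hu
  rcases i with _ | _ | _ | _ | _ | i
  · exact mem_perp_span_singleton.2 (B1 M g u)
  · have h1 : B e₁ u = 0 := mem_perp_span_singleton.1 hu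
    refine mem_perp_span.2 ?_
    rintro _ (rfl | rfl | rfl)
    · exact B1 M g u
    · rw [B2 M, h1, mul_zero, neg_zero]
    · rw [B3 M hg, h1, mul_zero, neg_zero]
  · obtain ⟨w, hw, e⟩ := perp_dec M h h7 hu
    rw [e, map_add, map_smul, nv M]
    have s : ∀ a ∈ ({e₁, e₂, e₃} : Set V), ∀ c : E,
        c • a ∈ Submodule.span E ({e₁, e₂, e₃} : Set V) := fun a ha c =>
      Submodule.smul_mem _ _ (Submodule.subset_span ha)
    exact add_mem (span_le (nW M hg hw)) (Submodule.smul_mem _ _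
      (add_mem (add_mem (s _ (by simp) _) (s _ (by simp) _)) (s _ (by simp) _)))
  · exact nW M hg hu
  · exact nL M g hu
  · have : u = 0 := hu
    rw [this, map_zero]
    exact zero_mem _

/-- The products of four factors. -/
theorem prod4 (h : IsHerm B) (h7 : finrank E V = 7) {g₁ g₂ g₃ g₄ : S} (h₁ : y g₁ = 0)
    (h₂ : y g₂ = 0) (h₃ : y g₃ = 0) (h₄ : y g₄ = 0) (u : V) :
    (φ S g₁ - 1) ((φ S g₂ - 1) ((φ S g₃ - 1) ((φ S g₄ - 1) u))) =
      ((x g₁ * a₂ g₂ + z g₁ * a₃ g₂) * (σ (a₂ g₃) * σ (x g₄) + σ (a₃ g₃) * σ (z g₄)) * B e₁ u) •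
        e₁ := by
  have hu := deg_one M h h7 h₃ 1 _ (deg_one M h h7 h₄ 0 u trivial)
  obtain ⟨w, hw, e⟩ := perp_dec M h h7 hu
  rw [e, Bv M h₃ (B1 M g₄ u), B2 M, B3 M h₄, map_add, map_add, nL M g₁ (nW M h₂ hw), map_smul,
    map_smul, nv M, map_add, map_add, map_smul, map_smul, map_smul, n1 M, n2 M, n3 M h₁]
  module

end Geo

theorem tv2b : Tv2bStmt.{u} := by
  intro E V _ _ _ _ _ σ B q S e₁ e₂ e₃ v x y z a₁ a₂ a₃ st h7 M hs ht
  have h := st.herm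
  haveI : Finite (V ≃ₗ[E] V) := DFunLike.finite _
  obtain ⟨α, hα⟩ := h.inv.ne_id
  obtain ⟨γ, hγ⟩ := h.inv.exists_trace_ne_zero
  obtain ⟨s, s1, s2⟩ := hs 1
  obtain ⟨s', s1', s2'⟩ := hs α
  obtain ⟨t, t1, t2, t3, t4⟩ := ht 1
  obtain ⟨t', t1', t2', t3', -⟩ := ht γ
  obtain ⟨g, K, L, rfl, rfl, hg⟩ := ld4 (Dg_mul _) (Dg_anti (Fl_anti M)) (deg_one M h h7 t2')
    (deg_one M h h7 t2) (deg_one M h h7 s1) (deg_one M h h7 s1')
  have he : e₁ ∈ Submodule.span E ({e₁, e₂, e₃} : Set V) := Submodule.subset_span (by simp)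
  have hc : (α - σ α) * (γ + σ γ) + σ ((α - σ α) * (γ + σ γ)) = 0 := by
    rw [map_mul, map_sub, map_add, h.inv.invol, h.inv.invol]; ring
  refine ⟨e₁, (α - σ α) * (γ + σ γ), M.ti _ he _ he, hc, M.li.ne_zero 0,
    mul_ne_zero (sub_ne_zero.2 hα.symm) hγ, ?_⟩
  convert g.2 using 1
  refine LinearEquiv.ext fun u => ?_
  have e : _ = (0 : V) := hg 0 u trivial
  rw [LinearMap.sub_apply, n_apply, sub_eq_zero, sub_eq_iff_eq_add'] at e
  rw [tv_apply, e]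
  congr 1
  rw [expand, prod4 M h h7 t2' t2 s1 s1', prod4 M h h7 t2' t2 s1' s1, prod4 M h h7 t2' s1 s1' t2,
    prod4 M h h7 t2' s1' s1 t2, prod4 M h h7 t2 s1 s1' t2', prod4 M h h7 t2 s1' s1 t2',
    prod4 M h h7 s1 s1' t2 t2', prod4 M h h7 s1' s1 t2 t2', t1, t1', t3, t3', t4, s2, s2',
    map_zero, map_one]
  module

end Cfsg.Agent.H64.UgTv2b
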