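import Cfsg.Agent.H41.S6Kit2

/-! S1734, part (b): the family `w` (`WStmt`). -/

set_option autoImplicit false
set_option maxRecDepth 100000
set_option synthInstance.maxSize 4096
set_option synthInstance.maxHeartbeats 200000
set_option linter.unusedSectionVars false

namespace Cfsg.Agent.H64.S6W

open Cfsg Subgroup
open Cfsg.Agent.H44 Cfsg.Agent.H55.Sp6 Cfsg.Agent.H2.L3E Cfsg.Agent.H41.S6

universe u

variable {G : Type u} [Group G] {ι : Sp →* G} {t : G}

theorem mv_t (h : Hy ι t) {x : G} {γ a : Sp} (hγ : γ ≠ 1) (tr : x * t * x⁻¹ = t * ι γ)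
    (c : x * ι a = ι a * x) : x * (t * ι a) ≠ t * ι a * x := fun e => by
  have : t * ι γ * ι a = t * ι a := by
    rw [← tr]
    calc _ = x * t * (x⁻¹ * (ι a * x)) * x⁻¹ := by group
      _ = x * (t * ι a) * x⁻¹ := by rw [← c]; group
      _ = _ := by rw [e]; group
  rw [mul_left_inj, mul_eq_left, ← map_one ι] at this
  exact hγ (h.inj this)

theorem g1_P1 : g 1 ∈ P1 := V0_le_P1 g1_mem_V0

theorem zv_t (h : Hy ι t) {z : G} (hz : Zv ι t z) : Zv ι t (z * t) where
  tr := by rw [← hz.tr]; group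
  cP := fun l hl => by rw [mul_assoc, h.ct, ← mul_assoc, hz.cP l hl, mul_assoc]

theorem V0_fix {y : Sp} (hy : y ∈ V0) (h1 : rho * y = y * rho) (h2 : rho2 * y = y * rho2) :
    y = 1 ∨ y = g 1 := by
  obtain ⟨v, hv, hb, e⟩ := V0_par hy
  have f : ∀ l ∈ P1, l * y = y * l → act l v / 2 = v / 2 := fun l hl c => by
    obtain ⟨e1, e2⟩ := P1_conj_sg hl hv hb
    refine (sg_inj (act_lt l v) hv e2 hb).1.1 ?_
    rw [← e1, mul_inv_eq_iff_eq_mul]
    rcases e with rfl | rfl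
    · exact c
    · rw [mul_assoc, ← P1_comm hl, ← mul_assoc, ← mul_assoc] at c
      exact mul_right_cancel c
  have f1 := f _ rho_P1 h1
  have f2 := f _ rho2_P1 h2
  rw [rho, act_wd (by decide) hv] at f1
  rw [rho2, act_wd (by decide) hv] at f2
  have key : ∀ v < 64, bf 1 v = 0 → wd [4, 32] v / 2 = v / 2 → wd [2, 16] v / 2 = v / 2 →
      v / 2 = 0 / 2 := by decide +kernel
  have e0 : sg 1 v = 1 := ((sg_inj hv (by omega) hb (by decide)).1.2 (key v hv hb f1 f2)).trans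
    (weq (l' := []) (by decide +kernel))
  rw [e0, one_mul] at e
  exact e

theorem zsq (h : Hy ι t) {z : G} (hz : Zv ι t z) : ∃ z, Zv ι t z ∧ z * z = 1 := by
  have b2 : ι (g 1) * ι (g 1) = 1 := by rw [← map_mul, g_sq 1 (by omega), map_one]
  have c1 : z * z * t = t * (z * z) := by
    rw [← mul_inv_eq_iff_eq_mul]
    calc _ = z * (z * t * z⁻¹) * z⁻¹ := by group
      _ = z * (t * ι (g 1)) * z⁻¹ := by rw [hz.tr]
      _ = z * t * z⁻¹ * (z * ι (g 1) * z⁻¹) := by group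
      _ = t := by rw [hz.tr, hz.cP _ g1_P1, mul_inv_cancel_right, mul_assoc, b2, mul_one]
  have cP : ∀ l ∈ P1, z * z * ι l = ι l * (z * z) := fun l hl => by
    rw [mul_assoc, hz.cP l hl, ← mul_assoc, hz.cP l hl, mul_assoc]
  obtain ⟨y, hy, e | e⟩ := h.mem_E1.1 (h.cen_E1 c1 fun a ha => cP a (V0_le_P1 ha))
  · have f : ∀ l ∈ P1, l * y = y * l := fun l hl => h.inj (by
      rw [map_mul, map_mul, ← e, cP l hl])
    rcases V0_fix hy (f _ rho_P1) (f _ rho2_P1) with rfl | rfl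
    · exact ⟨z, hz, by rw [e, map_one]⟩
    · refine ⟨_, zv_t h hz, ?_⟩
      calc _ = z * t * z⁻¹ * (z * z) * t := by group
        _ = 1 := by rw [hz.tr, e, mul_assoc t, b2, mul_one, h.tt]
  · exact absurd (by rw [← e, mul_assoc]) (mv_t h (g_ne_one (by omega) one_ne_zero) hz.tr
      (hz.cP y (V0_le_P1 hy)))

theorem act_w12 : act w12 1 = 2 ∧ act w12 2 = 1 := by
  rw [w12, act_wd (by decide) (by omega), act_wd (by decide) (by omega)]; decide +kernel

theorem fam (h : Hy ι t) {z : G} (hz : Zv ι t z) : ∃ w : ℕ → G, w 0 = 1 ∧ w 1 = z ∧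
    (∀ l : Sp, ∀ v < 64, ι l * w v * (ι l)⁻¹ = w (act l v)) ∧
    ∀ v < 64, w v * t * (w v)⁻¹ = t * ι (g v) := by
  classical
  let w : ℕ → G := fun v => if e : ∃ l : Sp, act l 1 = v then ι e.choose * z * (ι e.choose)⁻¹ else 1
  have w0 : w 0 = 1 := dif_neg fun ⟨l, e⟩ => act_ne_zero l (by omega) one_ne_zero e
  have sp : ∀ l : Sp, w (act l 1) = ι l * z * (ι l)⁻¹ := fun l => by
    have e : ∃ l' : Sp, act l' 1 = act l 1 := ⟨l, rfl⟩
    have := hz.cP (l⁻¹ * e.choose) (mem_P1.2 (by rw [act_mul, e.choose_spec, act_inv_act _ (by omega)]))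
    rw [map_mul, map_inv] at this
    change dite _ _ _ = _
    rw [dif_pos e]
    calc _ = ι l * ((ι l)⁻¹ * ι e.choose * z) * (ι e.choose)⁻¹ := by group
      _ = _ := by rw [← this]; group
  have ex : ∀ v < 64, v ≠ 0 → ∃ l : Sp, act l 1 = v := fun v hv h0 => by
    obtain ⟨s, hs⟩ := exists_to_one hv h0
    exact ⟨s⁻¹, by rw [← hs, act_inv_act _ hv]⟩
  refine ⟨w, w0, ?_, fun l v hv => ?_, fun v hv => ?_⟩
  · have := sp 1
    rwa [act_one (by omega), map_one, one_mul, inv_one, mul_one] at this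
  · by_cases h0 : v = 0
    · rw [h0, act_zero, w0, mul_one, mul_inv_cancel]
    · obtain ⟨s, rfl⟩ := ex v hv h0
      rw [← act_mul, sp, sp, map_mul]; group
  · by_cases h0 : v = 0
    · rw [h0, w0, g_zero, map_one]; group
    · obtain ⟨s, rfl⟩ := ex v hv h0
      rw [sp, ← conj_g, ← h.conj_tl, ← hz.tr]
      conv_lhs => rw [← h.conj_t s]
      group

theorem cA {w : ℕ → G} (eqv : ∀ l : Sp, ∀ v < 64, ι l * w v * (ι l)⁻¹ = w (act l v)) {v : ℕ}
    (hv : v < 8) {a : Sp} (ha : a ∈ A) : w v * ι a = ι a * w v := by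
  have := eqv a v (by omega)
  rw [mem_A.1 ha v hv, mul_inv_eq_iff_eq_mul] at this
  exact this.symm

theorem kap (h : Hy ι t) {w : ℕ → G} (eqv : ∀ l : Sp, ∀ v < 64, ι l * w v * (ι l)⁻¹ = w (act l v))
    (tr : ∀ v < 64, w v * t * (w v)⁻¹ = t * ι (g v)) (sq : w 1 * w 1 = 1) :
    ∃ c ∈ [0, 8, 3, 11], w 1 * w 2 = ι (ac c) * (w 2 * w 1) := by
  have e2 := eqv w12 1 (by omega)
  have e1 := eqv w12 2 (by omega)
  rw [act_w12.1] at e2
  rw [act_w12.2] at e1
  have sq2 : w 2 * w 2 = 1 := by rw [← e2, conj_mul, sq]; group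
  have c : ∀ a ∈ A, w 1 * w 2 * ι a = ι a * (w 1 * w 2) := fun a ha => by
    rw [mul_assoc, cA eqv (by omega) ha, ← mul_assoc, cA eqv (by omega) ha, mul_assoc]
  have t3 : w 1 * w 2 * t * (w 1 * w 2)⁻¹ = t * ι (ac 3) := by
    calc _ = w 1 * (w 2 * t * (w 2)⁻¹) * (w 1)⁻¹ := by group
      _ = w 1 * t * (w 1)⁻¹ * (w 1 * ι (g 2) * (w 1)⁻¹) := by rw [tr 2 (by omega)]; group
      _ = _ := by
        rw [tr 1 (by omega), cA eqv (by omega) (g_mem_A (by omega)), mul_inv_cancel_right, mul_assoc,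
          ← map_mul, g1_ac, g2_ac, ac_mul (by omega) (by omega)]; rfl
  have f : ∀ l : Sp, act l 1 = 1 → act l 2 = 2 → ι l * (w 1 * w 2) * (ι l)⁻¹ = w 1 * w 2 :=
    fun l a b => by rw [← conj_mul, eqv l 1 (by omega), eqv l 2 (by omega), a, b]
  have i : w 2 * w 1 = (w 1 * w 2)⁻¹ := by
    rw [mul_inv_rev, inv_eq_of_mul_eq_one_right sq, inv_eq_of_mul_eq_one_right sq2]
  have f' : ι w12 * (w 1 * w 2) * (ι w12)⁻¹ = (w 1 * w 2)⁻¹ := by rw [← conj_mul, e1, e2, i]
  rw [i]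
  generalize w 1 * w 2 = x at *
  have m3 : ac 3 ∈ A := ac_mem (by omega)
  obtain ⟨a, ha, e | e⟩ := h.mem_E3.1 (h.cen_E3 (x := x * x) (by
    rw [← mul_inv_eq_iff_eq_mul]
    calc _ = x * (x * t * x⁻¹) * x⁻¹ := by group
      _ = x * (t * ι (ac 3)) * x⁻¹ := by rw [t3]
      _ = x * t * x⁻¹ * (x * ι (ac 3) * x⁻¹) := by group
      _ = t := by
        rw [t3, c _ m3, mul_inv_cancel_right, mul_assoc, ← map_mul, A_sq m3, map_one, mul_one])
    fun a ha => by rw [mul_assoc, c a (Lam_le_A ha), ← mul_assoc, c a (Lam_le_A ha), mul_assoc])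
  · obtain ⟨c, hc, rfl⟩ := A_par.1 ha
    refine ⟨c, ?_, by rw [← e]; group⟩
    have k : ∀ l : List ℕ, (l.all (· < 64) && (wd l 1 < 8 && (wd l 2 < 8 && wd l 4 < 8))) = true →
        ι (ev g l) * (x * x) * (ι (ev g l))⁻¹ = x * x → cjc (wd l) c = c := fun l hl e' => by
      obtain ⟨a, b⟩ := conj_ac_wd hl hc
      rw [e, ← map_inv, ← map_mul, ← map_mul, b] at e'
      exact ac_inj a hc (h.inj e')
    have key : ∀ c < 64, cjc (wd [1, 32, 33]) c = c → cjc (wd [2, 32, 34]) c = c →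
        cjc (wd [1, 16, 17, 2, 8, 10, 1, 16, 17]) c = c → c ∈ [0, 8, 3, 11] := by decide +kernel
    refine key c hc (k _ (by decide +kernel) ?_) (k _ (by decide +kernel) ?_)
      (k _ (by decide +kernel) ?_)
    · rw [← conj_mul, f _ (by rw [act_wd (by decide) (by omega)]; decide +kernel)
        (by rw [act_wd (by decide) (by omega)]; decide +kernel)]
    · rw [← conj_mul, f _ (by rw [act_wd (by decide) (by omega)]; decide +kernel)
        (by rw [act_wd (by decide) (by omega)]; decide +kernel)]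
    · change ι w12 * _ * (ι w12)⁻¹ = _
      rw [← conj_mul, f', ← mul_inv_rev, e, ← map_inv, A_inv ha]
  · exact absurd (by rw [← e, mul_assoc]) (mv_t h (fun e => absurd (ac_inj (by omega) (by omega)
      (e.trans ac_zero.symm)) (by decide)) t3 (c a ha))

theorem base (h : Hy ι t) {z : G} (hz : Zv ι t z) : ∃ (w : ℕ → G) (η β : Bool), w 0 = 1 ∧
    (∀ l : Sp, ∀ v < 64, ι l * w v * (ι l)⁻¹ = w (act l v)) ∧
    (∀ v < 64, w v * t * (w v)⁻¹ = t * ι (g v)) ∧ w 1 * w 1 = ι (if η then g 1 else 1) ∧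
    w 1 * w 2 = ι (if β then a12 else 1) * (w 2 * w 1) := by
  obtain ⟨z, hz, sq⟩ := zsq h hz
  obtain ⟨w, w0, rfl, eqv, tr⟩ := fam h hz
  obtain ⟨c, hc, e⟩ := kap h eqv tr sq
  obtain ⟨w', w0', w1', eqv', tr'⟩ := fam h (zv_t h hz)
  have e2 := eqv w12 1 (by omega)
  have e2' := eqv' w12 1 (by omega)
  rw [act_w12.1] at e2 e2'
  rw [w1', ← conj_mul, e2, h.conj_t] at e2'
  have sq2 : w 2 * w 2 = 1 := by rw [← e2, conj_mul, sq]; group
  have tw : ∀ v < 8, w v * w v = 1 → t * (w v * t) = w v * ι (g v) := fun v hv s => by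
    have := tr v (by omega)
    rw [inv_eq_of_mul_eq_one_right s] at this
    calc _ = w v * (w v * t * w v) * t := by rw [← mul_assoc, ← mul_assoc, ← mul_assoc, s]; group
      _ = _ := by rw [this, h.ct, mul_assoc, mul_assoc, h.tt, mul_one]
  have sq' : w' 1 * w' 1 = ι (g 1) := by
    rw [w1', mul_assoc, tw 1 (by omega) sq, ← mul_assoc, sq, one_mul]
  have cm : ∀ d < 64, c = d ^^^ 3 → w' 1 * w' 2 = ι (ac d) * (w' 2 * w' 1) := fun d hd ed => by
    rw [w1', ← e2', mul_assoc, tw 2 (by omega) sq2, mul_assoc (w 2), tw 1 (by omega) sq,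
      ← mul_assoc, e, ed, ← ac_mul hd (by omega), map_mul, mul_assoc, mul_assoc, mul_right_inj,
      ← mul_assoc (ι _), ← mul_assoc (ι _), ← cA eqv (by omega) (ac_mem (by omega)),
      mul_assoc (w 2), ← cA eqv (by omega) (ac_mem (by omega)), mul_assoc, mul_assoc, ← map_mul,
      g1_ac, g2_ac, ac_mul (by omega) (by omega)]
    rfl
  simp only [List.mem_cons, List.not_mem_nil, or_false] at hc
  rcases hc with rfl | rfl | rfl | rfl
  · exact ⟨w, false, false, w0, eqv, tr, by simpa using sq, e⟩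
  · exact ⟨w, false, true, w0, eqv, tr, by simpa using sq, e⟩
  · exact ⟨w', true, false, w0', eqv', tr', sq', cm 0 (by omega) rfl⟩
  · exact ⟨w', true, true, w0', eqv', tr', sq', cm 8 (by omega) rfl⟩

/-- sorted insertion with cancellation -/
def tog (u : ℕ) : List ℕ → List ℕ
  | [] => [u]
  | v :: l => if u = v then l else if u < v then u :: v :: l else v :: tog u l

theorem sg_A {u v : ℕ} (hu : u < 8) (hv : v < 8) : sg u v ∈ A := by
  rw [sg, (ev_lt8 (by
    have : ∀ u < 8, ∀ v < 8, ∀ a ∈ [u, v, u ^^^ v], a < 8 := by decide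
    exact this u hu v hv)).2]
  exact ac_mem (ev_lt8 (by
    have : ∀ u < 8, ∀ v < 8, ∀ a ∈ [u, v, u ^^^ v], a < 8 := by decide
    exact this u hu v hv)).1

theorem bf8 : ∀ u < 8, ∀ v < 8, bf u v = 0 := by decide +kernel

theorem ws : WStmt.{u} := by
  intro _ G _ _ ι t h z hz
  obtain ⟨w, η, β, w0, eqv, tr, sq1, cm1⟩ := base h hz
  have sq : ∀ v < 64, w v * w v = ι (if η then g v else 1) := fun v hv => by
    by_cases h0 : v = 0
    · rw [h0, w0, g_zero, ite_self, map_one, one_mul]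
    · obtain ⟨s, hs⟩ := exists_to_one hv h0
      rw [← act_inv_act s hv, hs, ← eqv _ _ (by omega), conj_mul, sq1, ← conj_g, ← map_inv,
        ← map_mul, ← map_mul]
      cases η <;> simp
  have cm : ∀ u < 64, ∀ v < 64, bf u v = 0 →
      w u * w v = ι (if β then sg u v else 1) * (w v * w u) := fun u hu v hv hb => by
    by_cases h0 : u = 0
    · simp [h0, w0, sg, ev, g_zero, g_sq v hv]
    by_cases h1 : v = 0
    · simp [h1, w0, sg, ev, g_zero, g_sq u hu]
    by_cases h2 : u = v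
    · simp [h2, sg, ev, g_zero, g_sq v hv]
    obtain ⟨s, e1, e2⟩ := exists_pair hu hv h0 h1 h2 hb
    rw [← act_inv_act s hu, ← act_inv_act s hv, e1, e2, ← eqv _ _ (by omega), ← eqv _ _ (by omega),
      conj_mul, conj_mul, cm1, ← conj_sg _ (by omega) (by omega), ← conj_mul, ← map_inv, ← map_mul,
      ← map_mul]
    cases β <;> simp [a12]
  have mw : ∀ u < 8, w u ∈ MW ι w := fun u hu => mem_sup_right (subset_closure ⟨u, hu, rfl⟩)
  have cl : MW ι w = Subgroup.closure ((A.map ι : Set G) ∪ {x | ∃ u < 8, x = w u}) := by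
    rw [Subgroup.closure_union, Subgroup.closure_eq, MW]
  have mtr : ∀ m ∈ MW ι w, (∀ a ∈ A, m * ι a = ι a * m) ∧ ∃ a ∈ A, m * t * m⁻¹ = t * ι a := by
    intro m hm
    rw [cl] at hm
    induction hm using closure_induction with
    | mem x hx =>
      rcases hx with ⟨b, hb, rfl⟩ | ⟨u, hu, rfl⟩
      · exact ⟨fun a ha => by rw [← map_mul, A_comm hb ha, map_mul], 1, one_mem _, by
          rw [h.conj_t, map_one, mul_one]⟩
      · exact ⟨fun a ha => cA eqv hu ha, _, g_mem_A hu, tr u (by omega)⟩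
    | one => exact ⟨fun a _ => by simp, 1, one_mem _, by simp⟩
    | mul x y _ _ hx hy =>
      obtain ⟨c, a, ha, ea⟩ := hx
      obtain ⟨d, b, hb, eb⟩ := hy
      refine ⟨fun e he => by rw [mul_assoc, d e he, ← mul_assoc, c e he, mul_assoc], _,
        mul_mem ha hb, ?_⟩
      calc _ = x * (y * t * y⁻¹) * x⁻¹ := by group
        _ = x * t * x⁻¹ * (x * ι b * x⁻¹) := by rw [eb]; group
        _ = _ := by rw [ea, c b hb, map_mul]; group
    | inv x _ hx =>
      obtain ⟨c, a, ha, ea⟩ := hx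
      refine ⟨fun e he => ((show Commute x (ι e) from c e he).inv_left).eq, _, inv_mem ha, ?_⟩
      calc _ = x⁻¹ * (t * ι a) * ((ι a)⁻¹ * x) := by group
        _ = t * (x⁻¹ * ((ι a)⁻¹ * x)) := by rw [← ea]; group
        _ = _ := by rw [← map_inv, ← c _ (inv_mem ha)]; group
  have evm : ∀ l : List ℕ, (∀ u ∈ l, u < 8) →
      ev w l ∈ MW ι w ∧ ev w l * t * (ev w l)⁻¹ = t * ι (ev g l) := fun l hl => by
    induction l with
    | nil => exact ⟨one_mem _, by simp [ev_nil]⟩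
    | cons u l ih =>
      have hl' := fun a ha => hl a (List.mem_cons_of_mem _ ha)
      have hu := hl u List.mem_cons_self
      obtain ⟨i1, i2⟩ := ih hl'
      rw [ev_cons, ev_cons]
      refine ⟨mul_mem (mw u hu) i1, ?_⟩
      calc _ = w u * (ev w l * t * (ev w l)⁻¹) * (w u)⁻¹ := by group
        _ = w u * t * (w u)⁻¹ * (w u * ι (ev g l) * (w u)⁻¹) := by rw [i2]; group
        _ = _ := by
          rw [tr u (by omega), cA eqv hu ((ev_lt8 hl').2 ▸ ac_mem (ev_lt8 hl').1), map_mul]; group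
  refine ⟨w, η, β, w0, eqv, tr, sq, cm, mtr, fun a ha => ?_, fun m hm hc => ?_⟩
  · obtain ⟨c, hc, rfl⟩ := A_par.1 ha
    exact ⟨_, (evm _ (aw_lt8 c hc)).1, (evm _ (aw_lt8 c hc)).2⟩
  have iA : ∀ (b : Bool) {a : Sp}, a ∈ A → (if b then a else 1) ∈ A := fun b a ha => by
    cases b
    · exact one_mem _
    · exact ha
  have tg : ∀ u < 8, ∀ l : List ℕ, (∀ v ∈ l, v < 8) →
      ∃ a ∈ A, w u * ev w l = ι a * ev w (tog u l) := fun u hu l hl => by
    induction l with
    | nil => exact ⟨1, one_mem _, by simp [tog, ev]⟩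
    | cons v l ih =>
      have hv := hl v List.mem_cons_self
      obtain ⟨a, ha, e⟩ := ih fun a ha => hl a (List.mem_cons_of_mem _ ha)
      rw [tog]
      split_ifs with h1 h2
      · exact ⟨_, iA η (g_mem_A hu), by rw [ev_cons, ← h1, ← mul_assoc, sq u (by omega)]⟩
      · exact ⟨1, one_mem _, by simp [ev]⟩
      · refine ⟨_, mul_mem (iA β (sg_A hu hv)) ha, ?_⟩
        rw [ev_cons, ev_cons, ← mul_assoc, cm u (by omega) v (by omega) (bf8 u hu v hv), mul_assoc,
          mul_assoc, e, ← mul_assoc (w v), cA eqv hv ha, map_mul]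
        group
  have k1 : ∀ l ∈ [1, 2, 3, 4, 5, 6, 7].sublists, (∀ v ∈ l, v < 8) ∧
      (∀ u < 8, u = 0 ∨ tog u l ∈ [1, 2, 3, 4, 5, 6, 7].sublists) ∧
      ((l.map bc).foldr (· ^^^ ·) 0 = 0 → l = [] ∨ l = [1, 2, 3, 4, 5, 6, 7]) := by decide +kernel
  have nf : ∃ a ∈ A, ∃ l ∈ [1, 2, 3, 4, 5, 6, 7].sublists, m = ι a * ev w l := by
    have st : ∀ x ∈ (A.map ι : Set G) ∪ {x | ∃ u < 8, x = w u}, ∀ y : G,
        (∃ a ∈ A, ∃ l ∈ [1, 2, 3, 4, 5, 6, 7].sublists, y = ι a * ev w l) →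
        ∃ a ∈ A, ∃ l ∈ [1, 2, 3, 4, 5, 6, 7].sublists, x * y = ι a * ev w l := by
      rintro x (⟨b, hb, rfl⟩ | ⟨u, hu, rfl⟩) _ ⟨a, ha, l, hl, rfl⟩
      · exact ⟨_, mul_mem hb ha, l, hl, by rw [map_mul, mul_assoc]⟩
      · rcases (k1 l hl).2.1 u hu with rfl | e
        · exact ⟨a, ha, l, hl, by rw [w0, one_mul]⟩
        · obtain ⟨b, hb, e'⟩ := tg u hu l (k1 l hl).1
          exact ⟨_, mul_mem ha hb, _, e, by
            rw [← mul_assoc, cA eqv hu ha, mul_assoc, e', map_mul, mul_assoc]⟩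
    clear hc
    rw [cl] at hm
    induction hm using closure_induction_left with
    | one => exact ⟨1, one_mem _, [], by decide, by simp [ev_nil]⟩
    | mul_left x hx y _ hy => exact st x hx y hy
    | inv_mul_cancel x hx y _ hy =>
      rcases hx with ⟨b, hb, rfl⟩ | ⟨u, hu, rfl⟩
      · exact st _ (.inl ⟨_, inv_mem hb, map_inv ι b⟩) y hy
      · have := st _ (.inl ⟨_, inv_mem (iA η (g_mem_A hu)), rfl⟩) _ (st _ (.inr ⟨u, hu, rfl⟩) y hy)
        rwa [map_inv, ← sq u (by omega), show (w u * w u)⁻¹ * (w u * y) = (w u)⁻¹ * y by group] at this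
  obtain ⟨a, ha, l, hl, rfl⟩ := nf
  obtain ⟨l8, -, k2⟩ := k1 l hl
  obtain ⟨i1, i2⟩ := evm l l8
  have ct : ev w l * t = t * ev w l := by
    rw [mul_assoc, ← mul_assoc t, h.ct, mul_assoc] at hc
    exact mul_left_cancel hc
  rw [ct, mul_inv_cancel_right, left_eq_mul, (ev_lt8 l8).2, ← map_one ι, ← ac_zero] at i2
  refine mul_mem (mem_map_of_mem ι ha) ?_
  rcases k2 (ac_inj (ev_lt8 l8).1 (by omega) (h.inj i2)) with rfl | rfl
  · exact one_mem _
  obtain ⟨b, hb, e | e⟩ := h.mem_E3.1 (h.cen_E3 ct fun a ha => (mtr _ i1).1 a (Lam_le_A ha))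
  · exact ⟨b, hb, e.symm⟩
  refine absurd ?_ (mv_t h (g_ne_one (by omega) one_ne_zero) (tr 1 (by omega)) (cA eqv (by omega) hb))
  rw [← e]
  have c1 : ∀ l : List ℕ, (∀ v ∈ l, v < 8) → ev (fun v => if β then sg 1 v else 1) l ∈ A ∧
      w 1 * ev w l = ι (ev (fun v => if β then sg 1 v else 1) l) * (ev w l * w 1) := fun l hl => by
    induction l with
    | nil => exact ⟨one_mem _, by simp [ev_nil]⟩
    | cons v l ih =>
      have hv := hl v List.mem_cons_self
      obtain ⟨j1, j2⟩ := ih fun a ha => hl a (List.mem_cons_of_mem _ ha)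
      rw [ev_cons, ev_cons]
      refine ⟨mul_mem (iA β (sg_A (by omega) hv)) j1, ?_⟩
      rw [← mul_assoc, cm 1 (by omega) v (by omega) (bf8 1 (by omega) v hv), mul_assoc, mul_assoc, j2,
        ← mul_assoc (w v), cA eqv hv j1, map_mul]
      group
  rw [(c1 _ l8).2, show ev (fun v => if β then sg 1 v else 1) [1, 2, 3, 4, 5, 6, 7] = 1 by
    cases β
    · simp [ev]
    · simp only [ev_cons, ev_nil, if_true, sg, mul_one]
      simp only [← ev_cons, ← ev_single g, ← ev_append]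
      exact weq (l' := []) (by decide +kernel), map_one, one_mul]

end Cfsg.Agent.H64.S6W
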