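import Cfsg.Agent.H97.JmDefs

/-! An overgroup of `Q` has a Sylow 2-subgroup that centralises `z`. -/

set_option autoImplicit false

namespace Cfsg.Agent.H97.JM

open Subgroup

universe u

theorem pEC : EC.{u} := by
  intro G _ _ z x Q U h H k hQ hk
  obtain ⟨T, hT⟩ := ((IsPGroup.of_card h.Qc).comap_subtype (K := H)).exists_le_sylow
  set S := (T : Subgroup H).map H.subtype
  have hS : IsPGroup 2 S := T.2.map _
  have QS : Q ≤ S := fun q hq => ⟨⟨q, hQ hq⟩, hT hq, rfl⟩
  have z1 : z ≠ 1 := fun e => by simpa [e] using h.z2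
  have le : S ≤ centralizer {z} := by
    have := hS.isNilpotent
    by_contra hne
    have hlt : (S ⊓ centralizer {z}).subgroupOf S < ⊤ := by
      rw [lt_top_iff_ne_top, Ne, subgroupOf_eq_top]
      exact fun h' => hne (h'.trans inf_le_right)
    obtain ⟨n, h1, h2⟩ := SetLike.exists_of_lt (normalizerCondition_of_isNilpotent _ hlt)
    rw [← subgroupOf_normalizer_eq inf_le_left, mem_subgroupOf] at h1
    have cm : ∀ q ∈ Q, n * z * (n : G)⁻¹ * q = q * (n * z * (n : G)⁻¹) := fun q hq => by
      have := mem_centralizer_singleton_iff.1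
        ((mem_normalizer_iff.1 (inv_mem h1) q).1 ⟨QS hq, h.Qle hq⟩).2
      calc _ = n * (z * ((n : G)⁻¹ * q * (n : G)⁻¹⁻¹)) * (n : G)⁻¹ := by group
        _ = _ := by rw [← this]; group
    rcases h.Qz _ (cm z h.zQ) cm with e | e
    · exact z1 (conj_eq_one_iff.1 e)
    · exact h2 ⟨n.2, mem_centralizer_singleton_iff.2 (mul_inv_eq_iff_eq_mul.1 e)⟩
  refine (T.pow_dvd_card_of_pow_dvd_card hk).trans ?_
  rw [← card_map_of_injective (K := (T : Subgroup H)) H.subtype_injective]
  exact card_dvd_of_le (le_inf (map_subtype_le _) le)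

end Cfsg.Agent.H97.JM
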