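import Cfsg.Agent.H45.OnDefs

/-! Fixed points of an automorphism of a finite linear space with constant block size. -/

set_option autoImplicit false

namespace Cfsg.Agent.H64.OnLsf

open Finset Cfsg.Agent.H45.On

universe v

theorem lsf : LsfStmt.{v} := by
  classical
  intro Ω _ Bl γ h1 h2 h3 g g1 hg
  have := Fintype.ofFinite Ω
  have cB : ∀ z w, z ≠ w → #{v | v ∈ Bl z w} = γ := fun z w h => by
    rw [← (h3 z w h).1, ← Set.ncard_coe_finset]; congr 1; ext; simp
  have cnt : ∀ p, Nat.card Ω = 1 + #((univ.erase p).image (Bl p)) * (γ - 1) := fun p => by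
    have e := card_eq_sum_card_image (Bl p) (univ.erase p)
    rw [sum_const_nat (m := γ - 1) fun B hB => ?_] at e
    · rw [← e, Nat.card_eq_fintype_card, add_comm, card_erase_add_one (mem_univ p), card_univ]
    · obtain ⟨u, hu, rfl⟩ := mem_image.1 hB
      have pu := (ne_of_mem_erase hu).symm
      rw [← cB p u pu, ← card_erase_of_mem (a := p) (by simpa using (h1 p u).1)]
      congr 1
      ext x
      simp only [mem_filter, mem_erase, mem_univ, and_true, true_and, and_congr_right_iff]
      exact fun hx => ⟨fun e => e ▸ (h1 p x).2, h2 p u p x pu hx.symm (h1 p u).1⟩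
  obtain ⟨w, hw⟩ : ∃ w, g w ≠ w := not_forall.1 fun h => g1 (Equiv.ext h)
  have sub : ({w, g w} : Finset Ω) ⊆ univ.filter (· ∈ Bl w (g w)) := by
    simp [insert_subset_iff, h1 w (g w)]
  have γ2 : 2 ≤ γ := by
    rw [← cB w _ hw.symm, ← card_pair hw.symm]; exact card_le_card sub
  refine ⟨_, cnt w, ?_, ?_⟩
  · obtain ⟨p, hp⟩ := (Set.ne_univ_iff_exists_notMem _).1 (h3 w _ hw.symm).2
    rw [Nat.eq_of_mul_eq_mul_right (by omega) (Nat.add_left_cancel ((cnt w).symm.trans (cnt p))),
      ← cB w _ hw.symm]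
    have np : ∀ x ∈ Bl w (g w), p ≠ x := fun x hx e => hp (e ▸ hx)
    refine card_le_card_of_injOn (Bl p) (fun x hx => ?_) fun x hx y hy e => by_contra fun xy => hp ?_
    · exact mem_coe.2 (mem_image_of_mem _ (mem_erase.2 ⟨(np x (by simpa using hx)).symm, mem_univ x⟩))
    · have hx' : x ∈ Bl w (g w) := by simpa using hx
      rw [← h2 _ _ x y hw.symm xy hx' (by simpa using hy),
        h2 p x x y (np x hx') xy (h1 p x).2 (e ▸ (h1 p y).2)]
      exact (h1 p x).1
  · have e : {z | g z = z}.ncard = #{z | g z = z} := by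
      rw [← Set.ncard_coe_finset]; congr 1; ext; simp
    have a : #{z ∈ ({z | g z = z} : Finset Ω) | z ∈ Bl w (g w)} ≤ γ - 2 := by
      rw [← cB w _ hw.symm, ← card_pair hw.symm, ← card_sdiff_of_subset sub]
      refine card_le_card fun x hx => ?_
      simp only [mem_filter, mem_univ, true_and, mem_sdiff, mem_insert, mem_singleton] at hx ⊢
      refine ⟨hx.2, ?_⟩
      rintro (rfl | rfl)
      exacts [hw hx.1, hw (g.injective hx.1)]
    have m : Bl w (g w) ∈ (univ.erase w).image (Bl w) :=
      mem_image_of_mem _ (mem_erase.2 ⟨hw, mem_univ _⟩)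
    have b : #{z ∈ ({z | g z = z} : Finset Ω) | ¬ z ∈ Bl w (g w)} ≤
        #((univ.erase w).image (Bl w)) - 1 := by
      rw [← card_erase_of_mem m]
      have nw : ∀ x, g x = x → x ≠ w := fun x hx e => hw (e ▸ hx)
      refine card_le_card_of_injOn (Bl w) (fun x hx => ?_) fun x hx y hy e => by_contra fun xy => ?_
      · simp only [coe_filter, mem_filter, mem_univ, true_and, Set.mem_setOf_eq] at hx
        exact mem_coe.2 (mem_erase.2 ⟨fun e => hx.2 (e ▸ (h1 w x).2),
          mem_image_of_mem _ (mem_erase.2 ⟨nw x hx.1, mem_univ x⟩)⟩)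
      · simp only [coe_filter, mem_filter, mem_univ, true_and, Set.mem_setOf_eq] at hx hy
        have e1 := h2 w x x y (nw x hx.1).symm xy (h1 w x).2 (e ▸ (h1 w y).2)
        have e2 := hg x y w (e1 ▸ (h1 w x).1)
        rw [hx.1, hy.1, e1] at e2
        exact hx.2 (h2 w x w _ (nw x hx.1).symm hw.symm (h1 w x).1 e2 ▸ (h1 w x).2)
    have := card_pos.2 ⟨_, m⟩
    rw [e, ← card_filter_add_card_filter_not (fun z => z ∈ Bl w (g w))]
    omega

end Cfsg.Agent.H64.OnLsf
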