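import Mathlib
import Cfsg.Agent.H35.RfQ

/-! Project RF: the centralizer of a 2-central involution of `E` normalizes `⟨ρ⟩`. -/

set_option autoImplicit false

namespace Cfsg.Agent.H64.RfX1

open Cfsg Subgroup Cfsg.Agent.H42 Cfsg.Agent.H18.Rf Cfsg.Agent.H35.RF

universe u

section

variable {X A : Type u} [Group X] [Group A] (φ : X →* MulAut A)

/-- the stability group of the chain `1 ≤ U1 ≤ U2 ≤ A` -/
def K0 (U1 U2 : Subgroup A) (h : U1 ≤ U2) : Subgroup X where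
  carrier := {y | (∀ a ∈ U1, φ y a = a) ∧ (∀ a ∈ U2, φ y a * a⁻¹ ∈ U1) ∧ ∀ a, φ y a * a⁻¹ ∈ U2}
  one_mem' := by simp
  mul_mem' := by
    rintro x y ⟨x1, x2, x3⟩ ⟨y1, y2, y3⟩
    have e : ∀ a, φ (x * y) a * a⁻¹ = φ x (φ y a) * (φ y a)⁻¹ * (φ y a * a⁻¹) := fun a => by
      simp [mul_assoc]
    refine ⟨fun a ha => ?_, fun a ha => ?_, fun a => ?_⟩
    · rw [map_mul, MulAut.mul_apply, y1 a ha, x1 a ha]
    · rw [e]
      exact mul_mem (x2 _ (by simpa using mul_mem (h (y2 a ha)) ha)) (y2 a ha)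
    · rw [e]
      exact mul_mem (x3 _) (y3 a)
  inv_mem' := by
    rintro y ⟨y1, y2, y3⟩
    have e : ∀ a, φ y⁻¹ a * a⁻¹ = (φ y (φ y⁻¹ a) * (φ y⁻¹ a)⁻¹)⁻¹ := fun a => by simp
    have h3 : ∀ a, φ y⁻¹ a * a⁻¹ ∈ U2 := fun a => by
      rw [e]
      exact inv_mem (y3 _)
    refine ⟨fun a ha => ?_, fun a ha => ?_, h3⟩
    · apply (φ y).injective
      rw [y1 a ha]
      simp
    · rw [e]
      exact inv_mem (y2 _ (by simpa using mul_mem (h3 a) ha))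

variable {φ}

theorem K0_conj {U1 U2 : Subgroup A} {h : U1 ≤ U2} {g : X} (h1 : ∀ a ∈ U1, φ g a ∈ U1)
    (h1' : ∀ a ∈ U1, φ g⁻¹ a ∈ U1) (h2 : ∀ a ∈ U2, φ g a ∈ U2) (h2' : ∀ a ∈ U2, φ g⁻¹ a ∈ U2)
    {y : X} (hy : y ∈ K0 φ U1 U2 h) : g * y * g⁻¹ ∈ K0 φ U1 U2 h := by
  obtain ⟨y1, y2, y3⟩ := hy
  have e : ∀ a, φ (g * y * g⁻¹) a * a⁻¹ = φ g (φ y (φ g⁻¹ a) * (φ g⁻¹ a)⁻¹) := fun a => by simp
  refine ⟨fun a ha => ?_, fun a ha => ?_, fun a => ?_⟩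
  · rw [map_mul, map_mul, MulAut.mul_apply, MulAut.mul_apply, y1 _ (h1' a ha)]
    simp
  · rw [e]
    exact h1 _ (y2 _ (h2' a ha))
  · rw [e]
    exact h2 _ (y3 _)

theorem K0_pow (sq : ∀ a : A, a * a = 1) (inj : Function.Injective φ) {U1 U2 : Subgroup A}
    {h : U1 ≤ U2} {y : X} (hy : y ∈ K0 φ U1 U2 h) : y ^ 2 ^ 2 = 1 := by
  obtain ⟨y1, y2, y3⟩ := hy
  have iv : ∀ a : A, a⁻¹ = a := fun a => inv_eq_of_mul_eq_one_right (sq a)
  have k : ∀ a, ∃ u ∈ U1, φ y (φ y a) = u * a := fun a => by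
    refine ⟨_, y2 _ (y3 a), ?_⟩
    have h1 : φ y a = φ y a * a⁻¹ * a := by simp
    generalize φ y a * a⁻¹ = d at h1
    rw [h1, map_mul, h1, iv, mul_assoc]
  apply inj
  ext a
  obtain ⟨u, hu, e⟩ := k a
  have : y ^ 2 ^ 2 = y * y * (y * y) := by norm_num [pow_succ, mul_assoc]
  rw [this]
  simp only [map_mul, MulAut.mul_apply, map_one, MulAut.one_apply]
  rw [e, map_mul, map_mul, y1 u hu, y1 u hu, e, ← mul_assoc, sq, one_mul]

end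

theorem x1 (x0 : X0Stmt.{u}) : X1Stmt.{u} := by
  intro X A _ _ _ _ φ s W H E T ρ h e he e1 hT
  obtain ⟨e', he', e1', ee', h0⟩ := x0 X A φ s W H E T ρ h e he e1
  have iv : ∀ a : A, a⁻¹ = a := fun a => inv_eq_of_mul_eq_one_right (h.sqA a)
  have cm : ∀ a b : A, a * b = b * a := fun a b => by rw [← iv (a * b), mul_inv_rev, iv, iv]
  let δ : A →* A := MonoidHom.mk' (fun b => φ e b * b) fun a b => by
    simp only [map_mul, mul_assoc]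
    rw [← mul_assoc (φ e b), cm (φ e b) a, mul_assoc]
  let U2 : Subgroup A := (φ e).toMonoidHom.eqLocus (MonoidHom.id A)
  have m2 : ∀ a, a ∈ U2 ↔ φ e a = a := fun a => Iff.rfl
  have hW1 : δ.range ≤ W := by
    rintro _ ⟨b, rfl⟩
    exact h.EW2 e he b
  have hW2 : W ≤ U2 := fun w hw => h.EW1 e he w hw
  have h12 : δ.range ≤ U2 := hW1.trans hW2
  have cφ : ∀ {g x : X}, g * x = x * g → ∀ a, φ g (φ x a) = φ x (φ g a) := fun {g x} hg a => by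
    rw [← MulAut.mul_apply, ← map_mul, hg, map_mul, MulAut.mul_apply]
  have i1 : ∀ g ∈ C1 e, ∀ a ∈ δ.range, φ g a ∈ δ.range := by
    rintro g hg _ ⟨b, rfl⟩
    refine ⟨φ g b, ?_⟩
    change φ e (φ g b) * φ g b = φ g (φ e b * b)
    rw [map_mul, cφ (mem_centralizer_singleton_iff.1 hg)]
  have i2 : ∀ g ∈ C1 e, ∀ a ∈ U2, φ g a ∈ U2 := fun g hg a ha => by
    rw [m2, ← cφ (mem_centralizer_singleton_iff.1 hg), (m2 a).1 ha]
  set K := K0 φ δ.range U2 h12 with hK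
  have nK : ∀ g ∈ C1 e, ∀ y ∈ K, g * y * g⁻¹ ∈ K := fun g hg y hy =>
    K0_conj (i1 g hg) (i1 _ (inv_mem hg)) (i2 g hg) (i2 _ (inv_mem hg)) hy
  have pK : IsPGroup 2 K := fun y => ⟨2, Subtype.ext (K0_pow h.sqA h.inj y.2)⟩
  have hKT : K ≤ T := by
    obtain ⟨P, rfl⟩ := h.syl
    have h1 : (P : Subgroup X) ≤ normalizer (K : Set X) := fun g hg =>
      mem_normalizer_fintype (nK g (hT hg))
    exact le_sup_right.trans
      (P.is_maximal' (IsPGroup.to_sup_of_normal_right' P.isPGroup' pK h1) le_sup_left).le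
  have hρ : ρ ∈ C1 e :=
    mem_centralizer_singleton_iff.2 (mem_centralizer_singleton_iff.1 (h.Eρ he)).symm
  have ρ3 : ρ ^ 3 = 1 := h.ρ3 ▸ pow_orderOf_eq_one ρ
  have cK : ∀ k ∈ K, ρ * k = k * ρ := fun k hk => by
    have h1 : k * (ρ * k⁻¹ * ρ⁻¹) ∈ K := mul_mem hk (nK ρ hρ _ (inv_mem hk))
    have h2 : k * ρ * k⁻¹ * ρ⁻¹ ∈ zpowers ρ :=
      mul_mem ((mem_normalizer_iff.1 (h.nρ (h.TH (hKT hk))) ρ).1 (mem_zpowers ρ))
        (inv_mem (mem_zpowers ρ))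
    have h3 : (k * ρ * k⁻¹ * ρ⁻¹) ^ 2 ^ 2 = 1 := by
      simpa only [mul_assoc] using K0_pow h.sqA h.inj h1
    have h4 : (k * ρ * k⁻¹ * ρ⁻¹) ^ 3 = 1 := by
      obtain ⟨n, hn⟩ := h2
      rw [← hn]
      change (ρ ^ n) ^ 3 = 1
      rw [← zpow_natCast, ← zpow_mul, mul_comm, zpow_mul, zpow_natCast, ρ3, one_zpow]
    have h5 : k * ρ * k⁻¹ * ρ⁻¹ = 1 := by
      rw [show 2 ^ 2 = 3 + 1 from rfl, pow_succ, h4, one_mul] at h3
      exact h3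
    rw [mul_inv_eq_one, mul_inv_eq_iff_eq_mul] at h5
    exact h5.symm
  have eK : e' ∈ K := ⟨fun a ha => h.EW1 e' he' a (hW1 ha), fun a ha => by
    obtain ⟨b, hb⟩ := h0 a ha
    exact ⟨b, by rw [iv, hb]; rfl⟩, fun a => by rw [iv]; exact hW2 (h.EW2 e' he' a)⟩
  intro y hy
  have c1 : y * ρ * y⁻¹ ∈ C1 e := mul_mem (mul_mem hy hρ) (inv_mem hy)
  have c2 : y * ρ * y⁻¹ * e' = e' * (y * ρ * y⁻¹) := by
    have := cK _ (nK _ (inv_mem hy) _ eK)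
    have h2 := congrArg (fun x => y * x * y⁻¹) this
    simpa [mul_assoc] using h2
  have hH : y * ρ * y⁻¹ ∈ H := (h.nW _).2 fun w hw =>
    h.four e he e' he' e1 e1' ee' _ (i2 _ c1 w (hW2 hw)) (by rw [← cφ c2, h.EW1 e' he' w hw])
  have hz : y * ρ * y⁻¹ ∈ zpowers ρ := h.h3 _ hH (by rw [conj_pow, ρ3, mul_one, mul_inv_cancel])
    fun w _ hw => by
      have h1 : φ ρ (φ y⁻¹ w) = φ y⁻¹ w := by
        have := congrArg (φ y⁻¹) hw
        simpa using this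
      simpa using h.fpf _ h1
  refine mem_normalizer_fintype ?_
  rintro _ ⟨n, rfl⟩
  change y * ρ ^ n * y⁻¹ ∈ zpowers ρ
  rw [← conj_zpow]
  exact zpow_mem hz n

end Cfsg.Agent.H64.RfX1
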